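import Cfsg.Agent.Helper56.J3.Gen
import Cfsg.Agent.Helper56.J3.D1

set_option autoImplicit false

namespace Cfsg.Agent.Helper56.J3

theorem fin_6 : Cfsg.Agent.Helper28.ptChunk (Cfsg.Agent.Helper28.finPt D1 6156 (fun i => i) T1 D1.tp D1.tc) 6156 1024 6 = true := by decide +kernel

end Cfsg.Agent.Helper56.J3
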