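import Cfsg.Agent.Helper56.J3.Gen
import Cfsg.Agent.Helper56.J3.D2

set_option autoImplicit false

namespace Cfsg.Agent.Helper56.J3

theorem rows2_0 : Cfsg.Agent.Helper28.ptChunk (Cfsg.Agent.Helper28.rowChk D2) 1360 1024 0 = true := by decide +kernel

theorem fin2_0 : Cfsg.Agent.Helper28.ptChunk (Cfsg.Agent.Helper28.finPt D2 1360 (fun i => i) T2 D2.tp D2.tc) 1360 1024 0 = true := by decide +kernel

theorem rows2_1 : Cfsg.Agent.Helper28.ptChunk (Cfsg.Agent.Helper28.rowChk D2) 1360 1024 1 = true := by decide +kernel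

theorem fin2_1 : Cfsg.Agent.Helper28.ptChunk (Cfsg.Agent.Helper28.finPt D2 1360 (fun i => i) T2 D2.tp D2.tc) 1360 1024 1 = true := by decide +kernel

theorem pad2 : Cfsg.Agent.Helper28.padChk D2 = true := by decide +kernel

theorem rows3_0 : Cfsg.Agent.Helper28.ptChunk (Cfsg.Agent.Helper28.rowChk D3) 3 1024 0 = true := by decide +kernel

theorem fin3_0 : Cfsg.Agent.Helper28.ptChunk (Cfsg.Agent.Helper28.finPt D3 3 (fun i => i) T3 D3.tp D3.tc) 3 1024 0 = true := by decide +kernel

theorem pad3 : Cfsg.Agent.Helper28.padChk D3 = true := by decide +kernel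

theorem rows4_0 : Cfsg.Agent.Helper28.ptChunk (Cfsg.Agent.Helper28.rowChk D4) 2 1024 0 = true := by decide +kernel

theorem fin4_0 : Cfsg.Agent.Helper28.ptChunk (Cfsg.Agent.Helper28.finPt D4 2 (fun i => i) T4 D4.tp D4.tc) 2 1024 0 = true := by decide +kernel

theorem pad4 : Cfsg.Agent.Helper28.padChk D4 = true := by decide +kernel

end Cfsg.Agent.Helper56.J3
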