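import Mathlib
import Cfsg.Agent.Helper56.J3.Chk

/-!
# Janko's third group on 6156 points (helper56)

The group `Gk gen 4` generated by four involutions of `Fin 6156` given by packed tables: its order is
`50232960`, it is simple, transitive, and the stabiliser of the point `0` has order `8160`.
-/

set_option autoImplicit false

namespace Cfsg.Agent.Helper56.J3

open Cfsg.Agent.Helper28

/-! ### the tables -/

theorem D1_jc : D1.jc = 4 := rfl
theorem D1_N : D1.N = 6156 := rfl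

theorem F1 : FinSem D1 6156 (fun i => i) T1 :=
  finSem_of D1 6156 (fun i => i) T1 D1.tp D1.tc fin_all rfl

theorem relOK : ∀ l ∈ relL, ∀ i, i < 6156 → walkA T1 l i = i := rel_ok T1 relL 6156 rel_all

theorem relL_letters : ∀ l ∈ relL, ∀ k ∈ l, k < 4 := by decide

theorem sq_mem (k : ℕ) (hk : k < 4) : [k, k] ∈ relL := by
  interval_cases k <;> decide

theorem tabOK (k : ℕ) (hk : k < 4) : ∀ i, i < 6156 → T1 k i < 6156 ∧ T1 k (T1 k i) = i := by
  intro i hi
  exact ⟨F1.hT k hk i hi, relOK [k, k] (sq_mem k hk) i hi⟩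

/-- the tree of the table: every point other than `0` is the image of a smaller point -/
theorem tree1 (x : ℕ) (h0 : 0 < x) (hx : x < 6156) :
    D1.tc x < 4 ∧ D1.tp x < x ∧ T1 (D1.tc x) (D1.tp x) = x := by
  have := fin_all x hx
  unfold finPt at this
  rw [Bool.and_eq_true] at this
  have h2 := this.2
  have hb : Nat.beq x 0 = false := by
    cases hb : Nat.beq x 0 with
    | false => rfl
    | true => exact absurd (Nat.eq_of_beq_eq_true hb) (Nat.pos_iff_ne_zero.mp h0)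
  rw [hb] at h2
  simp only [cond_false, Bool.and_eq_true] at h2
  exact ⟨Nat.blt_eq.mp h2.1, Nat.blt_eq.mp h2.2.1, Nat.eq_of_beq_eq_true h2.2.2⟩

/-! ### the generators -/

/-- the four generating involutions -/
noncomputable def gen (c : ℕ) : Equiv.Perm (Fin 6156) := permOfTab T1 6156 c

theorem gen_eq (c : ℕ) : gen c = permOfTab T1 6156 c := rfl

theorem permOfTab_apply1 (c : ℕ) (hc : c < 4) (i : Fin 6156) :
    ((permOfTab T1 6156 c i : Fin 6156) : ℕ) = T1 c i :=
  permOfTab_apply T1 6156 c (tabOK c hc) i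

theorem gen_apply (c : ℕ) (hc : c < 4) (i : Fin 6156) : ((gen c i : Fin 6156) : ℕ) = T1 c i := by
  rw [gen_eq]
  exact permOfTab_apply1 c hc i

theorem gen_apply_mk (c : ℕ) (hc : c < 4) (x : ℕ) (hx : x < 6156) (y : ℕ) (hy : y < 6156)
    (h : T1 c x = y) : gen c ⟨x, hx⟩ = ⟨y, hy⟩ := by
  apply Fin.ext
  rw [gen_apply c hc]; exact h

theorem gen_rel (l : List ℕ) (hl : l ∈ relL) : (l.map gen).prod = 1 :=
  prod_permOfTab_eq_one T1 6156 l (fun k hk => tabOK k (relL_letters l hl k hk)) (relOK l hl)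

theorem gen_sq (c : ℕ) (hc : c < 4) : gen c * gen c = 1 := by
  have := gen_rel [c, c] (sq_mem c hc)
  simpa using this

theorem gen_appRel (l : List ℕ) (hl : l ∈ relL) : appProd gen l = 1 := by
  rw [appProd_eq_inv_prod gen l (fun a ha => gen_sq a (relL_letters l hl a ha)), gen_rel l hl, inv_one]

/-! ### upper bounds for the orders -/

theorem relA1_sub : ∀ r ∈ relA1, r ∈ relL := fun _ hr => List.mem_append_left _ hr
theorem relA2_sub : ∀ r ∈ relA2, r ∈ relL := by decide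
theorem relA3_sub : ∀ r ∈ relA3, r ∈ relL := by decide
theorem relA4_sub : ∀ r ∈ relA4, r ∈ relL := by decide

theorem upper1 : Nat.card (Gk gen 4) ≤ 6156 * Nat.card (Gk gen 3) :=
  tc_card_le gen D1 3 relA1 subs1 (fun c hc => gen_sq c hc) rfl rfl (by decide)
    (fun r hr => gen_appRel r (relA1_sub r hr)) (by decide) (by decide) pad1 rows_all fin_all
    (by decide)

theorem upper2 : Nat.card (Gk gen 3) ≤ 1360 * Nat.card (Gk gen 2) :=
  tc_card_le gen D2 2 relA2 subs2 (fun c hc => gen_sq c (lt_trans hc (by decide))) rfl rfl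
    (by decide) (fun r hr => gen_appRel r (relA2_sub r hr)) (by decide) (by decide) pad2 rows2_all
    fin2_all (by decide)

theorem upper3 : Nat.card (Gk gen 2) ≤ 3 * Nat.card (Gk gen 1) :=
  tc_card_le gen D3 1 relA3 subs3 (fun c hc => gen_sq c (lt_trans hc (by decide))) rfl rfl
    (by decide) (fun r hr => gen_appRel r (relA3_sub r hr)) (by decide) (by decide) pad3 rows3_all
    fin3_all (by decide)

theorem upper4 : Nat.card (Gk gen 1) ≤ 2 * Nat.card (Gk gen 0) :=
  tc_card_le gen D4 0 relA4 subs4 (fun c hc => gen_sq c (lt_trans hc (by decide))) rfl rfl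
    (by decide) (fun r hr => gen_appRel r (relA4_sub r hr)) (by decide) (by decide) pad4 rows4_all
    fin4_all (by decide)

/-! ### small facts about the tables -/

theorem small_chk : (and (Nat.beq (T1 0 0) 0) (and (Nat.beq (T1 1 0) 0) (and (Nat.beq (T1 2 0) 0)
    (and (Nat.beq (T1 0 1) 1) (and (Nat.beq (T1 1 1) 1) (and (Nat.beq (T1 0 2) 3)
      (Nat.beq (T1 0 (T1 1 2)) 7))))))) = true := by decide +kernel

theorem small_facts : T1 0 0 = 0 ∧ T1 1 0 = 0 ∧ T1 2 0 = 0 ∧ T1 0 1 = 1 ∧ T1 1 1 = 1 ∧ T1 0 2 = 3 ∧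
    T1 0 (T1 1 2) = 7 := by
  have h := small_chk
  simp only [Bool.and_eq_true] at h
  obtain ⟨h1, h2, h3, h4, h5, h6, h7⟩ := h
  exact ⟨Nat.eq_of_beq_eq_true h1, Nat.eq_of_beq_eq_true h2, Nat.eq_of_beq_eq_true h3,
    Nat.eq_of_beq_eq_true h4, Nat.eq_of_beq_eq_true h5, Nat.eq_of_beq_eq_true h6,
    Nat.eq_of_beq_eq_true h7⟩

theorem cond_blt_eq_ite {β : Type*} (x b : ℕ) (u v : β) :
    cond (Nat.blt x b) u v = if x < b then u else v := by
  by_cases h : x < b
  · rw [if_pos h, Nat.blt_eq.mpr h]; rfl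
  · rw [if_neg h]
    cases hb : Nat.blt x b with
    | false => rfl
    | true => exact absurd (Nat.blt_eq.mp hb) h

theorem clo_spec (x : ℕ) : clo x = if x < 1 then 0 else if x < 1361 then 1 else
    if x < 1871 then 1361 else if x < 3911 then 1871 else if x < 5271 then 3911 else
    if x < 5951 then 5271 else if x < 6036 then 5951 else 6036 := by
  unfold clo
  simp only [cond_blt_eq_ite]

theorem cls_spec (x : ℕ) (hx : x < 6156) :
    clo x = x ∨ (D1.tc x < 3 ∧ clo (D1.tp x) = clo x) := by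
  have := cls_all x hx
  unfold clsPt at this
  rw [Bool.or_eq_true, Bool.and_eq_true] at this
  rcases this with h | ⟨h1, h2⟩
  · left; exact Nat.eq_of_beq_eq_true h
  · right; exact ⟨Nat.blt_eq.mp h1, Nat.eq_of_beq_eq_true h2⟩

/-! ### transitivity and lower bounds -/

theorem lt0 : (0 : ℕ) < 6156 := by decide
theorem lt1 : (1 : ℕ) < 6156 := by decide
theorem lt2 : (2 : ℕ) < 6156 := by decide
theorem lt3 : (3 : ℕ) < 6156 := by decide
theorem lt7 : (7 : ℕ) < 6156 := by decide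
theorem lt1361 : (1361 : ℕ) < 6156 := by decide
theorem c04 : (0 : ℕ) < 4 := by decide
theorem c14 : (1 : ℕ) < 4 := by decide
theorem c24 : (2 : ℕ) < 4 := by decide
theorem c34 : (3 : ℕ) < 4 := by decide

theorem zero_eq : (0 : Fin 6156) = ⟨0, lt0⟩ := rfl

theorem reach0 : ∀ x, ∀ hx : x < 6156, ∃ h ∈ Gk gen 4, h (⟨0, lt0⟩ : Fin 6156) = ⟨x, hx⟩ := by
  intro x
  induction x using Nat.strong_induction_on with
  | _ x ih =>
    intro hx
    rcases Nat.eq_zero_or_pos x with h0 | h0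
    · subst h0; exact ⟨1, Subgroup.one_mem _, rfl⟩
    · obtain ⟨h1, h2, h3⟩ := tree1 x h0 hx
      obtain ⟨h, hh, e⟩ := ih _ h2 (lt_trans h2 hx)
      refine ⟨gen (D1.tc x) * h, Subgroup.mul_mem _ (gen_mem_Gk gen h1) hh, ?_⟩
      rw [Equiv.Perm.mul_apply, e]
      exact gen_apply_mk _ h1 _ _ _ hx h3

theorem reach1 : ∀ x, 1 ≤ x → ∀ hx : x < 1361,
    ∃ h ∈ Gk gen 3, h (⟨1, lt1⟩ : Fin 6156) = ⟨x, lt_trans hx lt1361⟩ := by
  intro x
  induction x using Nat.strong_induction_on with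
  | _ x ih =>
    intro h1 hx
    have hx' : x < 6156 := lt_trans hx lt1361
    have hclo : clo x = 1 := by rw [clo_spec]; split_ifs <;> omega
    rcases cls_spec x hx' with h | ⟨hc, hp⟩
    · have hx1 : x = 1 := by omega
      subst hx1; exact ⟨1, Subgroup.one_mem _, rfl⟩
    · obtain ⟨t1, t2, t3⟩ := tree1 x (by omega) hx'
      have hp1 : 1 ≤ D1.tp x := by
        rw [hclo, clo_spec] at hp
        split_ifs at hp <;> omega
      obtain ⟨h, hh, e⟩ := ih _ t2 hp1 (lt_trans t2 hx)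
      refine ⟨gen (D1.tc x) * h, Subgroup.mul_mem _ (gen_mem_Gk gen hc) hh, ?_⟩
      rw [Equiv.Perm.mul_apply, e]
      exact gen_apply_mk _ t1 _ _ _ hx' t3

theorem fix_of_gens (j : ℕ) (x : Fin 6156) (h : ∀ c, c < j → gen c x = x) :
    ∀ g ∈ Gk gen j, g x = x := by
  intro g hg
  unfold Gk at hg
  induction hg using Subgroup.closure_induction with
  | mem y hy => obtain ⟨c, hc, rfl⟩ := hy; exact h c hc
  | one => rfl
  | mul a b _ _ iha ihb => rw [Equiv.Perm.mul_apply, ihb, iha]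
  | inv a _ ih => rw [Equiv.Perm.inv_eq_iff_eq]; exact ih.symm

theorem fix0 : ∀ g ∈ Gk gen 3, g (⟨0, lt0⟩ : Fin 6156) = ⟨0, lt0⟩ := by
  apply fix_of_gens
  intro c hc
  obtain ⟨h0, h1, h2, -⟩ := small_facts
  interval_cases c
  · exact gen_apply_mk 0 c04 0 lt0 0 lt0 h0
  · exact gen_apply_mk 1 c14 0 lt0 0 lt0 h1
  · exact gen_apply_mk 2 c24 0 lt0 0 lt0 h2

theorem fix1 : ∀ g ∈ Gk gen 2, g (⟨1, lt1⟩ : Fin 6156) = ⟨1, lt1⟩ := by
  apply fix_of_gens
  intro c hc
  obtain ⟨-, -, -, h3, h4, -⟩ := small_facts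
  interval_cases c
  · exact gen_apply_mk 0 c04 1 lt1 1 lt1 h3
  · exact gen_apply_mk 1 c14 1 lt1 1 lt1 h4

/-- orbit–stabiliser lower bound -/
theorem card_ge_of_orbit {n : ℕ} (K L : Subgroup (Equiv.Perm (Fin n))) (x : Fin n) (m : ℕ)
    (f : Fin m → Fin n) (hf : Function.Injective f) (hreach : ∀ j, ∃ h ∈ K, h x = f j)
    (hL : L ≤ K) (hfix : ∀ h ∈ L, h x = x) : m * Nat.card L ≤ Nat.card K := by
  have h1 : (MulAction.stabilizer K x).index = (MulAction.orbit K x).ncard :=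
    MulAction.index_stabilizer K x
  have h2 := (MulAction.stabilizer K x).card_mul_index
  have h3 : m ≤ (MulAction.orbit K x).ncard := by
    have hsub : Set.range f ⊆ MulAction.orbit K x := by
      rintro _ ⟨j, rfl⟩
      obtain ⟨h, hh, e⟩ := hreach j
      exact ⟨⟨h, hh⟩, e⟩
    have hr : (Set.range f).ncard = m := by
      rw [← Set.image_univ, Set.ncard_image_of_injective _ hf, Set.ncard_univ, Nat.card_fin]
    rw [← hr]
    exact Set.ncard_le_ncard hsub
  have h4 : Nat.card L ≤ Nat.card (MulAction.stabilizer K x) := by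
    apply Nat.card_le_card_of_injective
      (fun l : L => (⟨⟨l.1, hL l.2⟩, hfix l.1 l.2⟩ : MulAction.stabilizer K x))
    intro a b hab
    apply Subtype.ext
    exact congrArg (fun z : MulAction.stabilizer K x => (z.1.1 : Equiv.Perm (Fin n))) hab
  rw [← h2, h1, Nat.mul_comm]
  exact Nat.mul_le_mul h4 h3

theorem lower3 : 1360 * Nat.card (Gk gen 2) ≤ Nat.card (Gk gen 3) := by
  apply card_ge_of_orbit (Gk gen 3) (Gk gen 2) (⟨1, lt1⟩ : Fin 6156) 1360
    (fun j => ⟨j.1 + 1, lt_trans (Nat.succ_lt_succ j.2) lt1361⟩)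
  · intro a b hab
    have := congrArg Fin.val hab
    apply Fin.ext
    simpa using this
  · intro j
    exact reach1 (j.1 + 1) (Nat.succ_le_succ (Nat.zero_le _)) (Nat.succ_lt_succ j.2)
  · exact Gk_mono gen (by decide)
  · exact fix1

theorem lower2 : 6 ≤ Nat.card (Gk gen 2) := by
  obtain ⟨-, -, -, -, -, h5, h6⟩ := small_facts
  have hm0 : gen 0 ∈ Gk gen 2 := gen_mem_Gk gen (by decide)
  have hm1 : gen 1 ∈ Gk gen 2 := gen_mem_Gk gen (by decide)
  have : Fact (Nat.Prime 2) := ⟨Nat.prime_two⟩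
  have : Fact (Nat.Prime 3) := ⟨Nat.prime_three⟩
  have o2 : orderOf (gen 0) = 2 := by
    apply orderOf_eq_prime
    · rw [pow_two]; exact gen_sq 0 c04
    · intro h
      have e := gen_apply_mk 0 c04 2 lt2 3 lt3 h5
      rw [h] at e
      exact absurd (congrArg Fin.val e) (by decide)
  have o3 : orderOf (gen 0 * gen 1) = 3 := by
    apply orderOf_eq_prime
    · have := gen_rel [0, 1, 0, 1, 0, 1] (by decide)
      simp only [List.map_cons, List.map_nil, List.prod_cons, List.prod_nil, mul_one] at this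
      rw [pow_succ, pow_two]
      simpa [mul_assoc] using this
    · intro h
      have e1 : gen 1 (⟨2, lt2⟩ : Fin 6156) = ⟨T1 1 2, (tabOK 1 c14 2 lt2).1⟩ :=
        gen_apply_mk 1 c14 2 lt2 _ _ rfl
      have e2 := gen_apply_mk 0 c04 (T1 1 2) (tabOK 1 c14 2 lt2).1 7 lt7 h6
      have e3 : (gen 0 * gen 1) (⟨2, lt2⟩ : Fin 6156) = ⟨7, lt7⟩ := by
        rw [Equiv.Perm.mul_apply, e1, e2]
      rw [h] at e3
      exact absurd (congrArg Fin.val e3) (by decide)
  have d2 : 2 ∣ Nat.card (Gk gen 2) := by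
    have := Subgroup.orderOf_dvd_natCard _ hm0
    rw [o2] at this; exact this
  have d3 : 3 ∣ Nat.card (Gk gen 2) := by
    have := Subgroup.orderOf_dvd_natCard _ (Subgroup.mul_mem _ hm0 hm1)
    rw [o3] at this; exact this
  have d6 : 6 ∣ Nat.card (Gk gen 2) :=
    Nat.Coprime.mul_dvd_of_dvd_of_dvd (by decide : Nat.Coprime 2 3) d2 d3
  exact Nat.le_of_dvd Nat.card_pos d6

instance G4_pretrans : MulAction.IsPretransitive (Gk gen 4) (Fin 6156) := by
  refine ⟨fun x y => ?_⟩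
  obtain ⟨h1, hh1, e1⟩ := reach0 x.1 x.2
  obtain ⟨h2, hh2, e2⟩ := reach0 y.1 y.2
  refine ⟨⟨h2 * h1⁻¹, Subgroup.mul_mem _ hh2 (Subgroup.inv_mem _ hh1)⟩, ?_⟩
  show (h2 * h1⁻¹) x = y
  have e3 : h1⁻¹ x = ⟨0, lt0⟩ := by
    rw [Equiv.Perm.inv_eq_iff_eq]; exact e1.symm
  rw [Equiv.Perm.mul_apply, e3, e2]

theorem lower1 : Nat.card (Gk gen 3) ≤ Nat.card (MulAction.stabilizer (Gk gen 4) (⟨0, lt0⟩ : Fin 6156)) := by
  apply Nat.card_le_card_of_injective
    (fun l : Gk gen 3 => (⟨⟨l.1, Gk_mono gen (by decide) l.2⟩, fix0 l.1 l.2⟩ :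
      MulAction.stabilizer (Gk gen 4) (⟨0, lt0⟩ : Fin 6156)))
  intro a b hab
  apply Subtype.ext
  exact congrArg (fun z : MulAction.stabilizer (Gk gen 4) (⟨0, lt0⟩ : Fin 6156) =>
    (z.1.1 : Equiv.Perm (Fin 6156))) hab

theorem card_eq_stab :
    Nat.card (Gk gen 4) = 6156 * Nat.card (MulAction.stabilizer (Gk gen 4) (⟨0, lt0⟩ : Fin 6156)) := by
  have h1 := (MulAction.stabilizer (Gk gen 4) (⟨0, lt0⟩ : Fin 6156)).card_mul_index
  have h2 : (MulAction.stabilizer (Gk gen 4) (⟨0, lt0⟩ : Fin 6156)).index = Nat.card (Fin 6156) :=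
    MulAction.index_stabilizer_of_transitive (Gk gen 4) (⟨0, lt0⟩ : Fin 6156)
  rw [h2, Nat.card_fin] at h1
  rw [← h1, Nat.mul_comm]

theorem orders : Nat.card (Gk gen 4) = 50232960 ∧
    Nat.card (MulAction.stabilizer (Gk gen 4) (⟨0, lt0⟩ : Fin 6156)) = 8160 := by
  have u1 := upper1
  have u2 := upper2
  have u3 := upper3
  have u4 := upper4
  have u0 : Nat.card (Gk gen 0) = 1 := by rw [Gk_zero]; exact Subgroup.card_bot
  have l1 := lower1
  have l2 := lower2
  have l3 := lower3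
  have e := card_eq_stab
  constructor <;> omega

end Cfsg.Agent.Helper56.J3
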