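import Cfsg.Agent.Helper56.J3.Gen
import Cfsg.Agent.Helper56.J3.D1

set_option autoImplicit false

namespace Cfsg.Agent.Helper56.J3

theorem rel_0 : Cfsg.Agent.Helper28.ptChunk (Cfsg.Agent.Helper28.relPt T1 relL) 6156 512 0 = true := by decide +kernel

theorem rel_1 : Cfsg.Agent.Helper28.ptChunk (Cfsg.Agent.Helper28.relPt T1 relL) 6156 512 1 = true := by decide +kernel

theorem rel_2 : Cfsg.Agent.Helper28.ptChunk (Cfsg.Agent.Helper28.relPt T1 relL) 6156 512 2 = true := by decide +kernel

theorem rel_3 : Cfsg.Agent.Helper28.ptChunk (Cfsg.Agent.Helper28.relPt T1 relL) 6156 512 3 = true := by decide +kernel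

end Cfsg.Agent.Helper56.J3
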