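import Mathlib
import Cfsg.Agent.Helper56.J3.Main

/-!
# Simplicity of the group `J3G` (helper56)

A nontrivial normal subgroup `N` is transitive (its orbit of the point `0` is a block which is a union
of orbits of the point stabiliser, and the orbit lengths leave no other choice), hence has order
divisible by `19`, hence contains every element of order `19`, hence the generators.
-/

set_option autoImplicit false

namespace Cfsg.Agent.Helper56.J3

open Cfsg.Agent.Helper28

/-! ### the classes of the point stabiliser -/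

/-- membership of the point with a given number -/
def inB (B : Set (Fin 6156)) (x : ℕ) : Prop := ∃ h : x < 6156, (⟨x, h⟩ : Fin 6156) ∈ B

open Classical in
/-- indicator of membership -/
noncomputable def ind (B : Set (Fin 6156)) (x : ℕ) : ℕ := if inB B x then 1 else 0

theorem gen_invol (c : ℕ) (hc : c < 4) (z : Fin 6156) : gen c (gen c z) = z := by
  rw [← Equiv.Perm.mul_apply, gen_sq c hc, Equiv.Perm.one_apply]

theorem clo_zero : clo 0 = 0 := by rw [clo_spec]; simp

theorem clo_cases (x : ℕ) : clo x = 0 ∨ clo x = 1 ∨ clo x = 1361 ∨ clo x = 1871 ∨ clo x = 3911 ∨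
    clo x = 5271 ∨ clo x = 5951 ∨ clo x = 6036 := by
  rw [clo_spec]; split_ifs <;> simp

theorem clo_pos (x : ℕ) (hx : 1 ≤ x) : clo x ≠ 0 := by
  rw [clo_spec]; split_ifs <;> omega

theorem inB_iff_clo (B : Set (Fin 6156)) (hcl : ∀ c, c < 3 → ∀ y ∈ B, gen c y ∈ B) :
    ∀ x, x < 6156 → (inB B x ↔ inB B (clo x)) := by
  intro x
  induction x using Nat.strong_induction_on with
  | _ x ih =>
    intro hx
    rcases cls_spec x hx with h | ⟨hc, hp⟩
    · rw [h]
    · rcases Nat.eq_zero_or_pos x with h0 | h0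
      · subst h0
        rw [clo_zero]
      · obtain ⟨t1, t2, t3⟩ := tree1 x h0 hx
        have hy : D1.tp x < 6156 := lt_trans t2 hx
        have e1 : gen (D1.tc x) ⟨D1.tp x, hy⟩ = ⟨x, hx⟩ := gen_apply_mk _ t1 _ _ _ _ t3
        have e2 : gen (D1.tc x) ⟨x, hx⟩ = ⟨D1.tp x, hy⟩ := by
          rw [← e1, gen_invol _ t1]
        rw [← hp, ← ih _ t2 hy]
        constructor
        · rintro ⟨w, hB⟩
          have hB' : (⟨x, hx⟩ : Fin 6156) ∈ B := hB
          have := hcl _ hc _ hB'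
          rw [e2] at this
          exact ⟨hy, this⟩
        · rintro ⟨w, hB⟩
          have hB' : (⟨D1.tp x, hy⟩ : Fin 6156) ∈ B := hB
          have := hcl _ hc _ hB'
          rw [e1] at this
          exact ⟨hx, this⟩

theorem clo_sum (F : ℕ → ℕ) : ∑ x ∈ Finset.range 6156, F (clo x) =
    F 0 + 1360 * F 1 + 510 * F 1361 + 2040 * F 1871 + 1360 * F 3911 + 680 * F 5271 + 85 * F 5951 +
      120 * F 6036 := by
  have hc : ∀ lo hi : ℕ, (∀ x, lo ≤ x → x < hi → clo x = lo) →
      ∑ x ∈ Finset.Ico lo hi, F (clo x) = (hi - lo) * F lo := by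
    intro lo hi h
    have h' : ∀ x ∈ Finset.Ico lo hi, F (clo x) = F lo := fun x hx => by
      rw [h x (Finset.mem_Ico.mp hx).1 (Finset.mem_Ico.mp hx).2]
    rw [Finset.sum_congr rfl h', Finset.sum_const, Nat.card_Ico, smul_eq_mul]
  have s1 := Finset.sum_Ico_consecutive (fun x => F (clo x)) (show 0 ≤ 1 by omega)
    (show 1 ≤ 1361 by omega)
  have s2 := Finset.sum_Ico_consecutive (fun x => F (clo x)) (show 0 ≤ 1361 by omega)
    (show 1361 ≤ 1871 by omega)
  have s3 := Finset.sum_Ico_consecutive (fun x => F (clo x)) (show 0 ≤ 1871 by omega)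
    (show 1871 ≤ 3911 by omega)
  have s4 := Finset.sum_Ico_consecutive (fun x => F (clo x)) (show 0 ≤ 3911 by omega)
    (show 3911 ≤ 5271 by omega)
  have s5 := Finset.sum_Ico_consecutive (fun x => F (clo x)) (show 0 ≤ 5271 by omega)
    (show 5271 ≤ 5951 by omega)
  have s6 := Finset.sum_Ico_consecutive (fun x => F (clo x)) (show 0 ≤ 5951 by omega)
    (show 5951 ≤ 6036 by omega)
  have s7 := Finset.sum_Ico_consecutive (fun x => F (clo x)) (show 0 ≤ 6036 by omega)
    (show 6036 ≤ 6156 by omega)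
  have c0 := hc 0 1 (by intro x h1 h2; rw [clo_spec]; split_ifs; omega)
  have c1 := hc 1 1361 (by intro x h1 h2; rw [clo_spec]; split_ifs <;> omega)
  have c2 := hc 1361 1871 (by intro x h1 h2; rw [clo_spec]; split_ifs <;> omega)
  have c3 := hc 1871 3911 (by intro x h1 h2; rw [clo_spec]; split_ifs <;> omega)
  have c4 := hc 3911 5271 (by intro x h1 h2; rw [clo_spec]; split_ifs <;> omega)
  have c5 := hc 5271 5951 (by intro x h1 h2; rw [clo_spec]; split_ifs <;> omega)
  have c6 := hc 5951 6036 (by intro x h1 h2; rw [clo_spec]; split_ifs <;> omega)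
  have c7 := hc 6036 6156 (by intro x h1 h2; rw [clo_spec]; split_ifs <;> omega)
  rw [Finset.range_eq_Ico, ← s7, ← s6, ← s5, ← s4, ← s3, ← s2, ← s1, c0, c1, c2, c3, c4, c5, c6, c7]
  omega

theorem ncard_eq_sum (B : Set (Fin 6156)) :
    B.ncard = ∑ x ∈ Finset.range 6156, ind B x := by
  classical
  have e1 : B.ncard = (Finset.univ.filter (fun i : Fin 6156 => i ∈ B)).card := by
    rw [← Set.ncard_coe_finset]; congr 1; ext i; simp
  rw [e1, Finset.card_filter, ← Fin.sum_univ_eq_sum_range (fun x => ind B x) 6156]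
  apply Finset.sum_congr rfl
  intro i _
  have hiff : inB B i.val ↔ i ∈ B := ⟨fun ⟨_, h⟩ => h, fun h => ⟨i.2, h⟩⟩
  unfold ind
  by_cases h : i ∈ B
  · rw [if_pos h, if_pos (hiff.mpr h)]
  · rw [if_neg h, if_neg (fun h' => h (hiff.mp h'))]

theorem arith7 : ∀ f1 f2 f3 f4 f5 f6 f7 : Bool,
    (1 + 1360 * f1.toNat + 510 * f2.toNat + 2040 * f3.toNat + 1360 * f4.toNat + 680 * f5.toNat +
      85 * f6.toNat + 120 * f7.toNat) ∣ 6156 →
    (f1 || f2 || f3 || f4 || f5 || f6 || f7) = true →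
    (f1 && f2 && f3 && f4 && f5 && f6 && f7) = true := by decide

open Classical in
theorem ind_eq (B : Set (Fin 6156)) (x : ℕ) : ind B x = (decide (inB B x)).toNat := by
  unfold ind
  by_cases h : inB B x <;> simp [h]

/-- A set containing the point `0`, closed under the generators of the point stabiliser, other than
`{0}`, whose size divides `6156`, is everything. -/
theorem block_univ (B : Set (Fin 6156)) (h0 : (⟨0, lt0⟩ : Fin 6156) ∈ B)
    (hcl : ∀ c, c < 3 → ∀ y ∈ B, gen c y ∈ B) (hne : B ≠ {⟨0, lt0⟩}) (hdvd : B.ncard ∣ 6156) :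
    B = Set.univ := by
  classical
  have key := inB_iff_clo B hcl
  have hsum : B.ncard = ind B 0 + 1360 * ind B 1 + 510 * ind B 1361 + 2040 * ind B 1871 +
      1360 * ind B 3911 + 680 * ind B 5271 + 85 * ind B 5951 + 120 * ind B 6036 := by
    rw [ncard_eq_sum, ← clo_sum (ind B)]
    apply Finset.sum_congr rfl
    intro x hx
    have := key x (Finset.mem_range.mp hx)
    unfold ind
    by_cases h : inB B x
    · rw [if_pos h, if_pos (this.mp h)]
    · rw [if_neg h, if_neg (fun h' => h (this.mpr h'))]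
  have hind0 : ind B 0 = 1 := by
    unfold ind; rw [if_pos ⟨lt0, h0⟩]
  have hex : ∃ y ∈ B, y ≠ (⟨0, lt0⟩ : Fin 6156) := by
    by_contra hcon
    apply hne
    ext y
    constructor
    · intro hy
      by_contra hy0
      exact hcon ⟨y, hy, hy0⟩
    · intro hy
      rw [Set.mem_singleton_iff] at hy
      rw [hy]; exact h0
  obtain ⟨y, hy, hy0⟩ := hex
  have hyv : 1 ≤ y.val := by
    rcases Nat.eq_zero_or_pos y.val with h | h
    · exact absurd (Fin.ext h) hy0
    · exact h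
  have hb : inB B (clo y.val) := (key y.val y.2).mp ⟨y.2, hy⟩
  have hor : (decide (inB B 1) || decide (inB B 1361) || decide (inB B 1871) || decide (inB B 3911) ||
      decide (inB B 5271) || decide (inB B 5951) || decide (inB B 6036)) = true := by
    have hc0 := clo_pos y.val hyv
    rcases clo_cases y.val with h | h | h | h | h | h | h | h
    · exact absurd h hc0
    all_goals (rw [h] at hb; simp [hb])
  rw [hsum, hind0, ind_eq B 1, ind_eq B 1361, ind_eq B 1871, ind_eq B 3911, ind_eq B 5271,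
    ind_eq B 5951, ind_eq B 6036] at hdvd
  have hall := arith7 _ _ _ _ _ _ _ hdvd hor
  simp only [Bool.and_eq_true, decide_eq_true_eq] at hall
  obtain ⟨⟨⟨⟨⟨⟨a1, a2⟩, a3⟩, a4⟩, a5⟩, a6⟩, a7⟩ := hall
  rw [Set.eq_univ_iff_forall]
  intro z
  have hz : inB B (clo z.val) := by
    rcases clo_cases z.val with h | h | h | h | h | h | h | h
    · rw [h]; exact ⟨lt0, h0⟩
    · rw [h]; exact a1
    · rw [h]; exact a2
    · rw [h]; exact a3
    · rw [h]; exact a4
    · rw [h]; exact a5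
    · rw [h]; exact a6
    · rw [h]; exact a7
  obtain ⟨_, hz'⟩ := (key z.val z.2).mpr hz
  exact hz'

/-! ### elements of order 19 -/

theorem v_rows (i : ℕ) (hi : i < 6156) :
    vPt vL vt0 i = true ∧ vPt (0 :: vL) vt1 i = true ∧ vPt (3 :: vL) vt2 i = true := by
  have := v_all i hi
  unfold vAll at this
  simp only [Bool.and_eq_true] at this
  exact this

theorem v_pow (l : List ℕ) (col : ℕ) (hl : ∀ k ∈ l, k < 4) (h : ∀ i, i < 6156 → vPt l col i = true) :
    ((l.map gen).prod) ^ 19 = 1 :=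
  pow_eq_one_of_table T1 6156 l (fun k hk => tabOK k (hl k hk)) (pk 13 8191 col) 19 (fun i hi => by
    have := h i hi
    unfold vPt at this
    rw [Bool.and_eq_true] at this
    exact ⟨Nat.eq_of_beq_eq_true this.1, Nat.eq_of_beq_eq_true this.2⟩)

theorem vL_letters : ∀ k ∈ vL, k < 4 := by decide
theorem vL0_letters : ∀ k ∈ 0 :: vL, k < 4 := by decide
theorem vL3_letters : ∀ k ∈ 3 :: vL, k < 4 := by decide

theorem pw01 : pairWord 0 1 3 ∈ relL := by decide
theorem pw23 : pairWord 2 3 15 ∈ relL := by decide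

theorem rel01 : (gen 1 * gen 0) ^ (2 * 1 + 1) = 1 := by
  have h := gen_rel _ pw01
  rw [pairWord_prod] at h
  exact pow_swap_eq_one _ _ _ h

theorem rel23 : (gen 2 * gen 3) ^ (2 * 7 + 1) = 1 := by
  have h := gen_rel _ pw23
  rw [pairWord_prod] at h
  exact h

/-! ### simplicity -/

section Abstract

variable (g : ℕ → Equiv.Perm (Fin 6156)) (x0 : Fin 6156)

/-- The simplicity argument, for an abstract family of generators. -/
theorem simple_abstract
    (hcard : Nat.card (Gk g 4) = 50232960)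
    (hreach : ∀ y : Fin 6156, ∃ h ∈ Gk g 4, h x0 = y)
    (hfix : ∀ c, c < 3 → g c x0 = x0)
    (hblock : ∀ B : Set (Fin 6156), x0 ∈ B → (∀ c, c < 3 → ∀ y ∈ B, g c y ∈ B) → B ≠ {x0} →
      B.ncard ∣ 6156 → B = Set.univ)
    (hsq : ∀ c, c < 4 → g c * g c = 1)
    (y1 : Equiv.Perm (Fin 6156)) (hy1 : y1 ∈ Gk g 4) (h19a : y1 ^ 19 = 1)
    (h19b : (g 0 * y1) ^ 19 = 1) (h19c : (g 3 * y1) ^ 19 = 1)
    (h01 : (g 1 * g 0) ^ (2 * 1 + 1) = 1) (h23 : (g 2 * g 3) ^ (2 * 7 + 1) = 1) :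
    IsSimpleGroup (Gk g 4) := by
  have hnt : Nontrivial (Gk g 4) := by
    rw [← Finite.one_lt_card_iff_nontrivial, hcard]; decide
  have hpre : MulAction.IsPretransitive (Gk g 4) (Fin 6156) := by
    refine ⟨fun x y => ?_⟩
    obtain ⟨h1, hh1, e1⟩ := hreach x
    obtain ⟨h2, hh2, e2⟩ := hreach y
    refine ⟨⟨h2 * h1⁻¹, Subgroup.mul_mem _ hh2 (Subgroup.inv_mem _ hh1)⟩, ?_⟩
    show (h2 * h1⁻¹) x = y
    have e3 : h1⁻¹ x = x0 := by
      rw [Equiv.Perm.inv_eq_iff_eq]; exact e1.symm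
    rw [Equiv.Perm.mul_apply, e3, e2]
  refine ⟨fun N hN => ?_⟩
  by_contra hcon
  rw [not_or] at hcon
  obtain ⟨hbot, htop⟩ := hcon
  apply htop
  have htr : ∀ y : Fin 6156, ∃ k : Gk g 4, (k : Equiv.Perm (Fin 6156)) x0 = y := fun y => by
    obtain ⟨h, hh, e⟩ := hreach y
    exact ⟨⟨h, hh⟩, e⟩
  have hm : ∀ c, c < 4 → g c ∈ Gk g 4 := fun c hc => gen_mem_Gk g hc
  have hB1 := orbSet_ncard_dvd (Gk g 4) N x0
  have hB2 : ∀ c, c < 3 → ∀ y ∈ orbSet (Gk g 4) N x0, g c y ∈ orbSet (Gk g 4) N x0 := by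
    intro c hc y hy
    exact orbSet_closed (Gk g 4) N x0 ⟨g c, hm c (lt_trans hc (by decide))⟩ (hfix c hc) y hy
  have hB3 : orbSet (Gk g 4) N x0 ≠ {x0} :=
    fun h => hbot (eq_bot_of_orbSet (Gk g 4) N x0 htr h)
  have hB := hblock _ (self_mem_orbSet (Gk g 4) N x0) hB2 hB3 hB1
  have h6156 := dvd_card_of_orbSet (Gk g 4) N x0 hB
  have h19 : 19 ∣ Nat.card N := dvd_trans (by decide : 19 ∣ 6156) h6156
  have hp19 : Fact (Nat.Prime 19) := ⟨by norm_num⟩
  have key : ∀ x : Gk g 4, x ^ 19 = 1 → x ∈ N := fun x hx =>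
    mem_normal_of_pow_prime N 19 h19 (by rw [hcard]; decide) x hx
  have key' : ∀ (z : Equiv.Perm (Fin 6156)) (hz : z ∈ Gk g 4), z ^ 19 = 1 →
      (⟨z, hz⟩ : Gk g 4) ∈ N := by
    intro z hz h
    apply key
    apply Subtype.ext
    rw [Subgroup.coe_pow]
    exact h
  have hY1 := key' y1 hy1 h19a
  have hY2 := key' (g 0 * y1) (Subgroup.mul_mem _ (hm 0 (by decide)) hy1) h19b
  have hY3 := key' (g 3 * y1) (Subgroup.mul_mem _ (hm 3 (by decide)) hy1) h19c
  have hg0 : (⟨g 0, hm 0 (by decide)⟩ : Gk g 4) ∈ N := by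
    have := N.mul_mem hY2 (N.inv_mem hY1)
    have e : (⟨g 0, hm 0 (by decide)⟩ : Gk g 4) =
        ⟨g 0 * y1, Subgroup.mul_mem _ (hm 0 (by decide)) hy1⟩ * (⟨y1, hy1⟩ : Gk g 4)⁻¹ := by
      apply Subtype.ext
      rw [Subgroup.coe_mul, Subgroup.coe_inv, mul_inv_cancel_right]
    rw [e]; exact this
  have hg3 : (⟨g 3, hm 3 (by decide)⟩ : Gk g 4) ∈ N := by
    have := N.mul_mem hY3 (N.inv_mem hY1)
    have e : (⟨g 3, hm 3 (by decide)⟩ : Gk g 4) =
        ⟨g 3 * y1, Subgroup.mul_mem _ (hm 3 (by decide)) hy1⟩ * (⟨y1, hy1⟩ : Gk g 4)⁻¹ := by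
      apply Subtype.ext
      rw [Subgroup.coe_mul, Subgroup.coe_inv, mul_inv_cancel_right]
    rw [e]; exact this
  have hsq' : ∀ (c : ℕ) (hc : c < 4),
      (⟨g c, hm c hc⟩ : Gk g 4) * ⟨g c, hm c hc⟩ = 1 := by
    intro c hc
    apply Subtype.ext
    rw [Subgroup.coe_mul]
    exact hsq c hc
  have hg1 : (⟨g 1, hm 1 (by decide)⟩ : Gk g 4) ∈ N := by
    apply mem_normal_of_odd_pow N _ _ (hsq' 1 (by decide)) (hsq' 0 (by decide)) 1 _ hg0
    apply Subtype.ext
    rw [Subgroup.coe_pow, Subgroup.coe_mul]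
    exact h01
  have hg2 : (⟨g 2, hm 2 (by decide)⟩ : Gk g 4) ∈ N := by
    apply mem_normal_of_odd_pow N _ _ (hsq' 2 (by decide)) (hsq' 3 (by decide)) 7 _ hg3
    apply Subtype.ext
    rw [Subgroup.coe_pow, Subgroup.coe_mul]
    exact h23
  rw [eq_top_iff, ← valK_gen g 4, Subgroup.closure_le]
  rintro _ ⟨c, hc, rfl⟩
  have hc' : c < 4 := hc
  have e : valK g 4 c = (⟨g c, hm c hc'⟩ : Gk g 4) := Subtype.ext (valK_lt g hc')
  rw [e]
  interval_cases c
  · exact hg0
  · exact hg1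
  · exact hg2
  · exact hg3

end Abstract

theorem G4_card : Nat.card (Gk gen 4) = 50232960 := orders.1

theorem h19_a : ((vL.map gen).prod) ^ 19 = 1 :=
  v_pow vL vt0 vL_letters (fun i hi => (v_rows i hi).1)

theorem h19_b : (gen 0 * (vL.map gen).prod) ^ 19 = 1 := by
  have := v_pow (0 :: vL) vt1 vL0_letters (fun i hi => (v_rows i hi).2.1)
  rw [List.map_cons, List.prod_cons] at this
  exact this

theorem h19_c : (gen 3 * (vL.map gen).prod) ^ 19 = 1 := by
  have := v_pow (3 :: vL) vt2 vL3_letters (fun i hi => (v_rows i hi).2.2)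
  rw [List.map_cons, List.prod_cons] at this
  exact this

theorem fix0' : ∀ c, c < 3 → gen c (⟨0, lt0⟩ : Fin 6156) = ⟨0, lt0⟩ :=
  fun _ hc => fix0 _ (gen_mem_Gk gen hc)

theorem reach0' : ∀ y : Fin 6156, ∃ h ∈ Gk gen 4, h (⟨0, lt0⟩ : Fin 6156) = y :=
  fun y => reach0 y.1 y.2

theorem G4_simple : IsSimpleGroup (Gk gen 4) :=
  simple_abstract gen ⟨0, lt0⟩ G4_card reach0' fix0' block_univ gen_sq
    ((vL.map gen).prod) (prod_mem_Gk gen 4 vL vL_letters) h19_a h19_b h19_c rel01 rel23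

/-- Janko's third group as a transitive group of degree 6156 -/
theorem J3G_main : ∃ H : Subgroup (Equiv.Perm (Fin 6156)),
    (IsSimpleGroup H ∧ Nat.card H = 50232960) ∧ MulAction.IsPretransitive H (Fin 6156) ∧
      Nat.card (MulAction.stabilizer H (0 : Fin 6156)) = 8160 := by
  refine ⟨Gk gen 4, ⟨G4_simple, G4_card⟩, G4_pretrans, ?_⟩
  rw [zero_eq]
  exact orders.2

end Cfsg.Agent.Helper56.J3
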