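import Cfsg.Agent.Helper56.J3.Gen
import Cfsg.Agent.Helper56.J3.DV

set_option autoImplicit false

namespace Cfsg.Agent.Helper56.J3

theorem vchk_6 : Cfsg.Agent.Helper28.ptChunk (vAll) 6156 1024 6 = true := by decide +kernel

end Cfsg.Agent.Helper56.J3
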